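import Mathlib
import Cfsg.Agent.Lib.Helper9.AschU.Defs
import Cfsg.Agent.Lib.Helper55.Asch.FormCore
import Cfsg.Agent.Lib.Helper96.Asch.L0c

set_option autoImplicit false

/-! # Unitary Aschbacher, block A: an absolutely irreducible normal subgroup fixing a bilinear form -/

namespace Cfsg.Agent.Lib.Helper5.AschU

open Cfsg Cfsg.Geo Matrix Cfsg.Agent.Lib.Helper13 Cfsg.Agent.Lib.Helper13.Asch
  Cfsg.Agent.Lib.Helper5.SUAsch Cfsg.Agent.Lib.Helper9.AschU Cfsg.Agent.Lib.Helper55.Asch
open scoped Kronecker MatrixGroups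

variable {F : Type*} [Field F] [Fintype F] {n q : ℕ}

/-- the conclusion of A3 as a hypothesis -/
def A3Hyp (n q : ℕ) (H : Subgroup (GL (Fin n) F)) : Prop :=
  ∀ (B : Matrix (Fin n) (Fin n) F), IsUnit B.det →
    ((Bᵀ = B ∧ Odd q) ∨ (Bᵀ = -B ∧ ∀ i, B i i = 0)) → ∀ a : F,
    B.map (fun x => x ^ q) * B = a • 1 →
    (∀ h ∈ H, ∃ c : F, (h : Matrix (Fin n) (Fin n) F)ᵀ * B *
      (h : Matrix (Fin n) (Fin n) F) = c • B) → UCls n q H

theorem hermForm_eq_gform (hF : Fintype.card F = q ^ 2) (u v : Fin n → F) :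
    hermForm n F q u v = gform (frobQ hF) (1 : Matrix (Fin n) (Fin n) F) u v := by
  simp only [gform, Matrix.one_mulVec, hermForm, dotProduct, frobQ_apply]

/-- `xᵀ σ(x) = 1` for `x ∈ GU` -/
theorem GU_transpose_mul (hF : Fintype.card F = q ^ 2) {x : GL (Fin n) F} (hx : x ∈ GU n F q) :
    (x : Matrix (Fin n) (Fin n) F)ᵀ * (x : Matrix (Fin n) (Fin n) F).map (frobQ hF) = 1 := by
  have h1 : ∀ u v, gform (frobQ hF) ((x : Matrix (Fin n) (Fin n) F)ᵀ * 1 *
      (x : Matrix (Fin n) (Fin n) F).map (frobQ hF)) u v = gform (frobQ hF) 1 u v := by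
    intro u v
    rw [← gform_mulVec, ← hermForm_eq_gform, ← hermForm_eq_gform]
    exact hx u v
  have h2 := gform_ext (frobQ hF) h1
  rwa [mul_one] at h2

theorem map_map_frobQ (hF : Fintype.card F = q ^ 2) (X : Matrix (Fin n) (Fin n) F) :
    (X.map (frobQ hF)).map (frobQ hF) = X := by
  ext i j
  simp [pow_q_pow_q hF]

/-- in characteristic two a symmetric matrix preserved up to scalars by an irreducible group has
zero diagonal -/
theorem zero_diag_of_char_two (hn : 2 ≤ n) [CharP F 2] {N : Subgroup (GL (Fin n) F)}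
    (henv : env N = ⊤) (B : Matrix (Fin n) (Fin n) F) (hsym : Bᵀ = B)
    (hBN : ∀ x ∈ N, ∃ c : F, (x : Matrix (Fin n) (Fin n) F)ᵀ * B * (x : Matrix (Fin n) (Fin n) F)
      = c • B) : ∀ i, B i i = 0 := by
  classical
  -- the quadratic map
  set Q : (Fin n → F) → F := fun u => u ⬝ᵥ (B *ᵥ u) with hQ
  have hbsymm : ∀ u v : Fin n → F, u ⬝ᵥ (B *ᵥ v) = v ⬝ᵥ (B *ᵥ u) := by
    intro u v
    rw [Matrix.dotProduct_mulVec, ← Matrix.mulVec_transpose, hsym, dotProduct_comm]
  have hQadd : ∀ u v, Q (u + v) = Q u + Q v := by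
    intro u v
    simp only [hQ, Matrix.mulVec_add, add_dotProduct, dotProduct_add]
    rw [hbsymm v u]
    have h2 : u ⬝ᵥ (B *ᵥ v) + u ⬝ᵥ (B *ᵥ v) = 0 := CharTwo.add_self_eq_zero _
    linear_combination h2
  have hQsmul : ∀ (c : F) u, Q (c • u) = c ^ 2 * Q u := by
    intro c u
    simp only [hQ, Matrix.mulVec_smul, smul_dotProduct, dotProduct_smul, smul_eq_mul]
    ring
  let Qh : (Fin n → F) →+ F := AddMonoidHom.mk' Q hQadd
  have hQsingle : ∀ i, Q (Pi.single i 1) = B i i := by
    intro i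
    simp [hQ]
  have hQsum : ∀ u : Fin n → F, Q u = ∑ i, u i ^ 2 * B i i := by
    intro u
    have h1 : u = ∑ i, u i • (Pi.single i 1 : Fin n → F) := by
      ext j
      simp [Finset.sum_apply, Pi.single_apply]
    conv_lhs => rw [h1]
    change Qh _ = _
    rw [map_sum]
    refine Finset.sum_congr rfl fun i _ => ?_
    change Q _ = _
    rw [hQsmul, hQsingle]
  -- square roots
  have hsq : ∀ c : F, ∃ s : F, s ^ 2 = c := by
    intro c
    obtain ⟨s, hs⟩ := FiniteField.isSquare_of_char_two (CharP.ringChar_of_prime_eq_zero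
      Nat.prime_two (CharP.cast_eq_zero F 2)) c
    exact ⟨s, by rw [hs]; ring⟩
  choose sq hsqv using hsq
  let ℓ : (Fin n → F) →ₗ[F] F :=
    { toFun := fun u => ∑ i, sq (B i i) * u i
      map_add' := by intro u v; simp [mul_add, Finset.sum_add_distrib]
      map_smul' := by
        intro c u
        simp only [Pi.smul_apply, smul_eq_mul, RingHom.id_apply, Finset.mul_sum]
        refine Finset.sum_congr rfl fun i _ => ?_
        ring }
  have hℓ : ∀ u, ℓ u ^ 2 = Q u := by
    intro u
    change (∑ i, sq (B i i) * u i) ^ 2 = _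
    rw [sum_pow_char 2, hQsum]
    refine Finset.sum_congr rfl fun i _ => ?_
    rw [mul_pow, hsqv]; ring
  have hinv : ∀ x ∈ N, ∀ w ∈ LinearMap.ker ℓ, (x : Matrix (Fin n) (Fin n) F) *ᵥ w ∈
      LinearMap.ker ℓ := by
    intro x hx w hw
    rw [LinearMap.mem_ker] at hw ⊢
    obtain ⟨c, hc⟩ := hBN x hx
    have h1 : Q ((x : Matrix (Fin n) (Fin n) F) *ᵥ w) = c * Q w := by
      simp only [hQ]
      rw [Matrix.dotProduct_mulVec, Matrix.vecMul_mulVec, ← Matrix.dotProduct_mulVec,
        Matrix.mulVec_mulVec, hc, Matrix.smul_mulVec, dotProduct_smul, smul_eq_mul]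
    have h2 : ℓ ((x : Matrix (Fin n) (Fin n) F) *ᵥ w) ^ 2 = 0 := by
      rw [hℓ, h1, ← hℓ, hw]; ring
    exact pow_eq_zero_iff (two_ne_zero) |>.1 h2
  have hker : LinearMap.ker ℓ = ⊥ ∨ LinearMap.ker ℓ = ⊤ := by
    apply Cfsg.Agent.Lib.Helper96.Asch.eq_bot_or_top_of_forall_mulVec
    exact Cfsg.Agent.Lib.Helper96.Asch.mulVec_mem_of_env_top henv _ hinv
  have hne : LinearMap.ker ℓ ≠ ⊥ := by
    apply LinearMap.ker_ne_bot_of_finrank_lt
    rw [Module.finrank_self, Module.finrank_fin_fun]
    omega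
  have htop := hker.resolve_left hne
  intro i
  rw [← hQsingle, ← hℓ]
  have : (Pi.single i 1 : Fin n → F) ∈ LinearMap.ker ℓ := by rw [htop]; trivial
  rw [LinearMap.mem_ker] at this
  rw [this]; ring

/-- A2, with A3 as a hypothesis -/
theorem ucls_of_fixes_bilin_aux (hF : Fintype.card F = q ^ 2) (hn : 2 ≤ n)
    {H N : Subgroup (GL (Fin n) F)} (hA3 : A3Hyp n q H) (hNU : N ≤ GU n F q) (hN : Nrm H N)
    (henv : env N = ⊤) (b : (Fin n → F) → (Fin n → F) → F) (hb : IsBilinearForm b)
    (hnd : IsNondegenerateForm b) (hfix : FixesForm (matrixSet N) b) : UCls n q H := by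
  classical
  set B := gram b with hBdef
  have hE : ∀ u v, b u v = gform (RingHom.id F) B u v :=
    eq_gform (RingHom.id F) b hb.add_left hb.smul_left hb.add_right
      (fun c v x => by simpa using hb.smul_right c v x)
  have hBdet : IsUnit B.det := by
    apply isUnit_det_of_nondeg (RingEquiv.refl F) B
    intro v hv
    obtain ⟨x, hx⟩ := (hnd v hv).1
    refine ⟨x, ?_⟩
    have := hE x v
    rw [this] at hx
    exact hx
  have hmapid : ∀ X : Matrix (Fin n) (Fin n) F, X.map (RingHom.id F) = X := by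
    intro X; ext i j; rfl
  have hBN' : ∀ x ∈ N, (x : Matrix (Fin n) (Fin n) F)ᵀ * B *
      (x : Matrix (Fin n) (Fin n) F).map (RingHom.id F) = B := by
    intro x hx
    apply gform_ext (RingHom.id F)
    intro u v
    rw [← gform_mulVec, ← hE, ← hE]
    exact hfix _ ⟨x, hx, rfl⟩ u v
  have hBN : ∀ x ∈ N, (x : Matrix (Fin n) (Fin n) F)ᵀ * B * (x : Matrix (Fin n) (Fin n) F) = B := by
    intro x hx
    have := hBN' x hx
    rwa [hmapid] at this
  have hB0 : B ≠ 0 := by
    rintro h0
    rw [h0] at hBdet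
    have : Nonempty (Fin n) := ⟨⟨0, by omega⟩⟩
    simp at hBdet
  -- (i)
  obtain ⟨ε, hε⟩ : ∃ ε : F, Bᵀ = ε • B := by
    apply gram_unique henv (RingHom.id F) B Bᵀ hBdet hBN'
    intro x hx
    rw [hmapid]
    have := congrArg Matrix.transpose (hBN x hx)
    rw [Matrix.transpose_mul, Matrix.transpose_mul, Matrix.transpose_transpose, ← mul_assoc] at this
    exact this
  have hε2 : ε * ε = 1 := by
    have h1 : B = (ε * ε) • B := by
      conv_lhs => rw [← Matrix.transpose_transpose B, hε, Matrix.transpose_smul, hε, smul_smul]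
    obtain ⟨i, j, hij⟩ : ∃ i j, B i j ≠ 0 := by
      by_contra hcon
      push Not at hcon
      exact hB0 (by ext i j; exact hcon i j)
    have h2 := congrFun (congrFun h1 i) j
    rw [Matrix.smul_apply, smul_eq_mul] at h2
    have h3 : (ε * ε - 1) * B i j = 0 := by linear_combination -h2
    rcases mul_eq_zero.1 h3 with h4 | h4
    · linear_combination h4
    · exact absurd h4 hij
  have hε1 : ε = 1 ∨ ε = -1 := by
    have : (ε - 1) * (ε + 1) = 0 := by linear_combination hε2
    rcases mul_eq_zero.1 this with h | h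
    · left; linear_combination h
    · right; linear_combination h
  -- (ii)
  set σ := frobQ hF with hσ
  have hBx : ∀ x ∈ N, B * (x : Matrix (Fin n) (Fin n) F) =
      (x : Matrix (Fin n) (Fin n) F).map σ * B := by
    intro x hx
    have h1 := GU_transpose_mul hF (hNU hx)
    have h2 : (x : Matrix (Fin n) (Fin n) F).map σ * (x : Matrix (Fin n) (Fin n) F)ᵀ = 1 :=
      mul_eq_one_comm.1 h1
    calc B * (x : Matrix (Fin n) (Fin n) F)
        = ((x : Matrix (Fin n) (Fin n) F).map σ * (x : Matrix (Fin n) (Fin n) F)ᵀ) * B *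
            (x : Matrix (Fin n) (Fin n) F) := by rw [h2, one_mul]
      _ = (x : Matrix (Fin n) (Fin n) F).map σ * ((x : Matrix (Fin n) (Fin n) F)ᵀ * B *
            (x : Matrix (Fin n) (Fin n) F)) := by simp only [mul_assoc]
      _ = _ := by rw [hBN x hx]
  obtain ⟨a, ha⟩ : ∃ a : F, B.map σ * B = a • 1 := by
    apply Cfsg.Agent.Lib.Helper96.Asch.scalar_of_commute henv
    intro x hx
    have h1 := congrArg (fun X : Matrix (Fin n) (Fin n) F => X.map σ) (hBx x hx)
    simp only [Matrix.map_mul] at h1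
    rw [hσ, map_map_frobQ hF, ← hσ] at h1
    rw [mul_assoc, hBx x hx, ← mul_assoc, h1, mul_assoc]
  -- (iii)
  have hsim : ∀ h ∈ H, ∃ c : F, (h : Matrix (Fin n) (Fin n) F)ᵀ * B *
      (h : Matrix (Fin n) (Fin n) F) = c • B := by
    intro h hh
    obtain ⟨c, hc⟩ := sim_of_gram H N hN henv (RingHom.id F) B hBdet hBN' h hh
    rw [hmapid] at hc
    exact ⟨c, hc⟩
  -- (iv)
  have hsym : (Bᵀ = B ∧ Odd q) ∨ (Bᵀ = -B ∧ ∀ i, B i i = 0) := by
    rcases Nat.even_or_odd q with hq | hq
    · -- characteristic two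
      have h2 : (2 : F) = 0 := by
        obtain ⟨p, k, hp, hchar, hqk⟩ := exists_char_pow hF
        have hp2 : p = 2 := by
          have h2q : 2 ∣ p ^ k := hqk ▸ hq.two_dvd
          exact ((Nat.prime_dvd_prime_iff_eq Nat.prime_two hp).1
            (Nat.Prime.dvd_of_dvd_pow Nat.prime_two h2q)).symm
        subst hp2
        exact_mod_cast CharP.cast_eq_zero F 2
      have hchar : CharP F 2 := CharTwo.of_one_ne_zero_of_two_eq_zero one_ne_zero h2
      have hneg : (-1 : F) = 1 := by linear_combination -h2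
      have hs : Bᵀ = B := by
        rcases hε1 with h | h
        · rw [hε, h, one_smul]
        · rw [hε, h, hneg, one_smul]
      right
      refine ⟨?_, zero_diag_of_char_two hn henv B hs (fun x hx => ⟨1, by rw [hBN x hx, one_smul]⟩)⟩
      rw [hs]
      ext i j
      rw [Matrix.neg_apply]
      linear_combination (B i j) * h2
    · rcases hε1 with h | h
      · left; exact ⟨by rw [hε, h, one_smul], hq⟩
      · right
        have hs : Bᵀ = -B := by rw [hε, h, neg_smul, one_smul]
        refine ⟨hs, fun i => ?_⟩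
        have h1 := congrFun (congrFun hs i) i
        rw [Matrix.transpose_apply, Matrix.neg_apply] at h1
        have h2 : (2 : F) ≠ 0 := by
          intro h2
          have hchar : CharP F 2 := CharTwo.of_one_ne_zero_of_two_eq_zero one_ne_zero h2
          have h3 : 2 ∣ Fintype.card F := by
            obtain ⟨k, -, hk⟩ := FiniteField.card F 2
            rw [hk]
            exact dvd_pow_self 2 k.ne_zero
          rw [hF] at h3
          have := Nat.Prime.dvd_of_dvd_pow Nat.prime_two h3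
          exact (Nat.not_even_iff_odd.2 hq) (even_iff_two_dvd.2 this)
        have h3 : 2 * B i i = 0 := by linear_combination h1
        exact (mul_eq_zero.1 h3).resolve_left h2
  exact hA3 B hBdet hsym a ha hsim

end Cfsg.Agent.Lib.Helper5.AschU
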