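import Mathlib
import Cfsg.Agent.Lib.Helper5.AschU.A2
import Cfsg.Agent.Lib.Helper35.Asch.L8

set_option autoImplicit false

/-! # Unitary Aschbacher, block A: generic lemmas for A1 -/

namespace Cfsg.Agent.Lib.Helper5.AschU

open Cfsg Cfsg.Geo Matrix Cfsg.Agent.Lib.Helper13 Cfsg.Agent.Lib.Helper13.Asch
  Cfsg.Agent.Lib.Helper5.SUAsch Cfsg.Agent.Lib.Helper9.AschU Cfsg.Agent.Lib.Helper55.Asch
open scoped Kronecker MatrixGroups

section gen

variable {ι : Type} [Fintype ι] [DecidableEq ι] {F : Type*} [Field F]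

/-- the core of helper35's L8 -/
theorem subfield_core (H N : Subgroup (GL ι F)) (hN : Nrm H N) (henv : env N = ⊤)
    (F₁ : Subfield F) (σ : F →+* F) (hσ1 : ∀ x, σ x = x → x ∈ F₁) (B : GL ι F)
    (hfix : ∀ s ∈ N, σ.mapMatrix ((B * s * B⁻¹ : GL ι F) : Matrix ι ι F) =
      ((B * s * B⁻¹ : GL ι F) : Matrix ι ι F)) : H ≤ subfieldSubgroup F₁ B⁻¹ := by
  intro h hh
  by_cases hι : IsEmpty ι
  · have : h = 1 := by
      apply Units.ext
      ext i
      exact (hι.false i).elim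
    rw [this]; exact Subgroup.one_mem _
  rw [not_isEmpty_iff] at hι
  obtain ⟨h', hh'⟩ : ∃ h' : GL ι F, h' = B * h * B⁻¹ := ⟨_, rfl⟩
  obtain ⟨T, hT⟩ : ∃ T : Matrix ι ι F, T = σ.mapMatrix (h' : Matrix ι ι F) := ⟨_, rfl⟩
  obtain ⟨T', hT'⟩ : ∃ T' : Matrix ι ι F, T' = σ.mapMatrix ((h'⁻¹ : GL ι F) : Matrix ι ι F) := ⟨_, rfl⟩
  have hTT' : T' * T = 1 := by
    rw [hT, hT', ← map_mul, ← Units.val_mul, inv_mul_cancel, Units.val_one, map_one]
  -- key commutation
  have hkey : ∀ s ∈ N, T * ((B * s * B⁻¹ : GL ι F) : Matrix ι ι F) =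
      (h' : Matrix ι ι F) * ((B * s * B⁻¹ : GL ι F) : Matrix ι ι F) *
        ((h'⁻¹ : GL ι F) : Matrix ι ι F) * T := by
    intro s hs
    have h1 := hfix (h * s * h⁻¹) (hN h hh s hs)
    have h2 : B * (h * s * h⁻¹) * B⁻¹ = h' * (B * s * B⁻¹) * h'⁻¹ := by rw [hh']; group
    rw [h2, Units.val_mul, Units.val_mul, map_mul, map_mul, hfix s hs, ← hT, ← hT'] at h1
    rw [← h1, mul_assoc (T * _) T' T, hTT', mul_one]
  obtain ⟨c, hc⟩ := Cfsg.Agent.Lib.Helper96.Asch.scalar_of_commute henv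
    (((B⁻¹ * h'⁻¹ : GL ι F) : Matrix ι ι F) * T * (B : Matrix ι ι F)) (by
    intro s hs
    have h1 := hkey s hs
    have e1 : (s : Matrix ι ι F) = ((B⁻¹ : GL ι F) : Matrix ι ι F) *
        ((B * s * B⁻¹ : GL ι F) : Matrix ι ι F) * (B : Matrix ι ι F) := by
      rw [← Units.val_mul, ← Units.val_mul]; congr 1; group
    have e2 : (B : Matrix ι ι F) * ((B⁻¹ : GL ι F) : Matrix ι ι F) = 1 := by
      rw [← Units.val_mul, mul_inv_cancel, Units.val_one]
    have e3 : ((h'⁻¹ : GL ι F) : Matrix ι ι F) * (h' : Matrix ι ι F) = 1 := by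
      rw [← Units.val_mul, inv_mul_cancel, Units.val_one]
    set S : Matrix ι ι F := ((B * s * B⁻¹ : GL ι F) : Matrix ι ι F) with hS
    rw [e1, Units.val_mul]
    calc ((B⁻¹ : GL ι F) : Matrix ι ι F) * ((h'⁻¹ : GL ι F) : Matrix ι ι F) * T * (B : Matrix ι ι F) *
          (((B⁻¹ : GL ι F) : Matrix ι ι F) * S * (B : Matrix ι ι F))
        = ((B⁻¹ : GL ι F) : Matrix ι ι F) * ((h'⁻¹ : GL ι F) : Matrix ι ι F) * T *
          ((B : Matrix ι ι F) * ((B⁻¹ : GL ι F) : Matrix ι ι F)) * S * (B : Matrix ι ι F) := by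
          simp only [mul_assoc]
      _ = ((B⁻¹ : GL ι F) : Matrix ι ι F) * ((h'⁻¹ : GL ι F) : Matrix ι ι F) * (T * S) *
          (B : Matrix ι ι F) := by rw [e2, mul_one]; simp only [mul_assoc]
      _ = ((B⁻¹ : GL ι F) : Matrix ι ι F) * (((h'⁻¹ : GL ι F) : Matrix ι ι F) * (h' : Matrix ι ι F)) * S *
          ((h'⁻¹ : GL ι F) : Matrix ι ι F) * T * (B : Matrix ι ι F) := by rw [h1]; simp only [mul_assoc]
      _ = ((B⁻¹ : GL ι F) : Matrix ι ι F) * S * ((B : Matrix ι ι F) * ((B⁻¹ : GL ι F) : Matrix ι ι F)) *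
          ((h'⁻¹ : GL ι F) : Matrix ι ι F) * T * (B : Matrix ι ι F) := by rw [e3, e2, mul_one, mul_one]
      _ = _ := by simp only [mul_assoc])
  have hTc : T = c • (h' : Matrix ι ι F) := by
    have e2 : (B : Matrix ι ι F) * ((B⁻¹ : GL ι F) : Matrix ι ι F) = 1 := by
      rw [← Units.val_mul, mul_inv_cancel, Units.val_one]
    have e4 : (h' : Matrix ι ι F) * ((h'⁻¹ : GL ι F) : Matrix ι ι F) = 1 := by
      rw [← Units.val_mul, mul_inv_cancel, Units.val_one]
    calc T = ((h' : Matrix ι ι F) * ((h'⁻¹ : GL ι F) : Matrix ι ι F)) * T := by rw [e4, one_mul]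
      _ = (h' : Matrix ι ι F) * (((B : Matrix ι ι F) * ((B⁻¹ : GL ι F) : Matrix ι ι F)) *
          ((h'⁻¹ : GL ι F) : Matrix ι ι F) * T * ((B : Matrix ι ι F) * ((B⁻¹ : GL ι F) : Matrix ι ι F))) := by
          rw [e2, one_mul, mul_one, mul_assoc]
      _ = (h' : Matrix ι ι F) * ((B : Matrix ι ι F) * (((B⁻¹ * h'⁻¹ : GL ι F) : Matrix ι ι F) * T *
          (B : Matrix ι ι F)) * ((B⁻¹ : GL ι F) : Matrix ι ι F)) := by
          rw [Units.val_mul]; simp only [mul_assoc]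
      _ = _ := by
          rw [hc, Matrix.mul_smul, mul_one, Matrix.smul_mul, e2, Matrix.mul_smul, mul_one]
  -- a nonzero entry
  obtain ⟨i, j, hij⟩ : ∃ i j, (h' : Matrix ι ι F) i j ≠ 0 := by
    by_contra hcon
    push Not at hcon
    have h0 : (h' : Matrix ι ι F) = 0 := by ext i j; exact hcon i j
    have e4 : (h' : Matrix ι ι F) * ((h'⁻¹ : GL ι F) : Matrix ι ι F) = 1 := by
      rw [← Units.val_mul, mul_inv_cancel, Units.val_one]
    rw [h0, zero_mul] at e4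
    obtain ⟨i⟩ := hι
    have := congrFun (congrFun e4 i) i
    simp at this
  set ν : F := (h' : Matrix ι ι F) i j with hν
  have hσν : σ ν = c * ν := by
    have := congrFun (congrFun hTc i) j
    rw [hT, RingHom.mapMatrix_apply, Matrix.map_apply, Matrix.smul_apply, smul_eq_mul] at this
    exact this
  have hc0 : c ≠ 0 := by
    rintro rfl
    rw [zero_mul] at hσν
    exact hij ((map_eq_zero σ).mp hσν)
  set Y : Matrix ι ι F := ν⁻¹ • (h' : Matrix ι ι F) with hY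
  have hYmem : ∀ k l, Y k l ∈ F₁ := by
    intro k l
    apply hσ1
    have h1 := congrFun (congrFun hTc k) l
    rw [hT, RingHom.mapMatrix_apply, Matrix.map_apply, Matrix.smul_apply, smul_eq_mul] at h1
    rw [hY, Matrix.smul_apply, smul_eq_mul, map_mul, map_inv₀, hσν, h1]
    field_simp
  let A₁ : Matrix ι ι F₁ := Matrix.of fun k l => ⟨Y k l, hYmem k l⟩
  have hA₁ : A₁.map F₁.subtype = Y := by
    ext k l; rfl
  have hdet : A₁.det ≠ 0 := by
    intro h0
    have h1 : F₁.subtype A₁.det = Y.det := by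
      rw [RingHom.map_det, RingHom.mapMatrix_apply, hA₁]
    rw [h0, map_zero, hY, Matrix.det_smul] at h1
    have h2 : (h' : Matrix ι ι F).det ≠ 0 := by
      have := (Matrix.GeneralLinearGroup.det h').ne_zero
      simpa using this
    exact (mul_ne_zero (pow_ne_zero _ (inv_ne_zero hij)) h2) h1.symm
  let g₁ : GL ι F₁ := Matrix.GeneralLinearGroup.mkOfDetNeZero A₁ hdet
  let sc : GL ι F := Units.map (Matrix.scalar ι : F →+* Matrix ι ι F).toMonoidHom (Units.mk0 ν hij)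
  have hprod : h' = Matrix.GeneralLinearGroup.map (F₁.subtype : F₁ →+* F) g₁ * sc := by
    apply Units.ext
    rw [Units.val_mul]
    have h1 : ((Matrix.GeneralLinearGroup.map (F₁.subtype : F₁ →+* F) g₁ : GL ι F) : Matrix ι ι F) = Y := hA₁
    have h2 : (sc : Matrix ι ι F) = Matrix.scalar ι ν := rfl
    rw [h1, h2, hY]
    ext k l
    simp [Matrix.mul_apply, Matrix.diagonal_apply]
    field_simp
  refine ⟨h', ?_, ?_⟩
  · rw [hprod]
    exact Subgroup.mul_mem _ (Subgroup.mem_sup_left ⟨g₁, rfl⟩) (Subgroup.mem_sup_right ⟨_, rfl⟩)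
  · change B⁻¹ * h' * B⁻¹⁻¹ = h
    rw [hh']; group


/-- uniqueness of a form preserved up to given multipliers -/
theorem uniq_mult (𝒳 : Set (Matrix ι ι F))
    (hcs : ∀ M : Matrix ι ι F, (∀ X ∈ 𝒳, M * X = X * M) → ∃ c : F, M = c • (1 : Matrix ι ι F))
    (σ : F →+* F) (hσ : ∀ a, σ (σ a) = a) (G G' : Matrix ι ι F) (hG : IsUnit G.det)
    (hX : ∀ X ∈ 𝒳, IsUnit X.det)
    (h : ∀ X ∈ 𝒳, ∃ c : F, Xᵀ * G * X.map σ = c • G ∧ Xᵀ * G' * X.map σ = c • G') :
    ∃ l : F, G' = l • G := by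
  set M := G⁻¹ * G' with hM
  have hGM : G * M = G' := by rw [hM, ← mul_assoc, Matrix.mul_nonsing_inv G hG, one_mul]
  have hmm : ∀ Y : Matrix ι ι F, (Y.map σ).map σ = Y := by
    intro Y; ext i j; simp [hσ]
  have hcomm : ∀ X ∈ 𝒳, M * X.map σ = X.map σ * M := by
    intro X hXm
    obtain ⟨c, h1, h2⟩ := h X hXm
    have hdet : IsUnit (Xᵀ * G).det := by
      rw [Matrix.det_mul, Matrix.det_transpose]; exact (hX X hXm).mul hG
    have e : (Xᵀ * G) * (M * X.map σ) = (Xᵀ * G) * (X.map σ * M) := by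
      calc (Xᵀ * G) * (M * X.map σ) = Xᵀ * (G * M) * X.map σ := by simp only [mul_assoc]
        _ = c • G' := by rw [hGM, h2]
        _ = (c • G) * M := by rw [Matrix.smul_mul, hGM]
        _ = _ := by rw [← h1]; simp only [mul_assoc]
    have := congrArg (fun Y => (Xᵀ * G)⁻¹ * Y) e
    simpa only [← mul_assoc, Matrix.nonsing_inv_mul _ hdet, one_mul] using this
  obtain ⟨c, hc⟩ := hcs (M.map σ) (by
    intro X hXm
    have := congrArg (fun Y : Matrix ι ι F => Y.map σ) (hcomm X hXm)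
    simp only [Matrix.map_mul, hmm] at this
    exact this)
  refine ⟨σ c, ?_⟩
  have hMc : M = σ c • 1 := by
    have := congrArg (fun Y : Matrix ι ι F => Y.map σ) hc
    simp only [hmm] at this
    rw [this]
    ext i j
    by_cases hij : i = j
    · subst hij; simp
    · simp [hij]
  rw [← hGM, hMc, Matrix.mul_smul, mul_one]

end gen

end Cfsg.Agent.Lib.Helper5.AschU
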