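import Mathlib
import Cfsg.Agent.Lib.Helper5.AschU.A1a
import Cfsg.Agent.Lib.Helper9.AschU.Base

set_option autoImplicit false

/-! # Unitary Aschbacher, block A: A1, field theory for the odd index case -/

namespace Cfsg.Agent.Lib.Helper5.AschU

open Cfsg Cfsg.Geo Matrix Cfsg.Agent.Lib.Helper13 Cfsg.Agent.Lib.Helper13.Asch
  Cfsg.Agent.Lib.Helper5.SUAsch Cfsg.Agent.Lib.Helper9.AschU Cfsg.Agent.Lib.Helper55.Asch
open scoped Kronecker MatrixGroups

variable {F : Type*} [Field F] [Fintype F] {n q : ℕ}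

/-- a subfield of odd index is not fixed pointwise by `x ↦ x ^ q` -/
theorem exists_not_fixed (hF : Fintype.card F = q ^ 2) (F₁ : Subfield F) (r : ℕ) (hr : Odd r)
    (hc : Fintype.card F = Nat.card F₁ ^ r) : ∃ y ∈ F₁, y ^ q ≠ y := by
  classical
  by_contra hcon
  push Not at hcon
  obtain ⟨K, hK, hKc⟩ := exists_fixedSubfield hF
  have hle : F₁ ≤ K := fun y hy => (hK y).2 (hcon y hy)
  letI : Algebra F₁ K := (Subfield.inclusion hle).toAlgebra
  have h1 : Nat.card K = Nat.card F₁ ^ Module.finrank F₁ K := by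
    rw [Nat.card_eq_fintype_card, Nat.card_eq_fintype_card]
    exact Module.card_eq_pow_finrank
  have h2 : Nat.card F₁ ^ r = Nat.card F₁ ^ (Module.finrank F₁ K * 2) := by
    rw [← hc, hKc, h1, pow_mul]
  have h3 : 2 ≤ Nat.card F₁ := Finite.one_lt_card
  have h4 := Nat.pow_right_injective h3 h2
  rw [h4] at hr
  exact (Nat.not_even_iff_odd.2 hr) (even_iff_two_dvd.2 (Dvd.intro_left _ rfl))

theorem exists_norm_scalar (hF : Fintype.card F = q ^ 2) (F₁ : Subfield F) (r : ℕ) (hr : Odd r)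
    (hc : Fintype.card F = Nat.card F₁ ^ r) (τ : F →+* F) (hτ : ∀ x, τ x = x → x ∈ F₁)
    (J : Matrix (Fin n) (Fin n) F) (hJ0 : J ≠ 0) (hJh : (J.map (frobQ hF))ᵀ = J) (l : F)
    (hl : J.map τ = l • J) : ∃ lam : F, lam ≠ 0 ∧ ∀ i j, lam ^ (q + 1) * J i j ∈ F₁ := by
  obtain ⟨a, b, hab⟩ : ∃ i j, J i j ≠ 0 := by
    by_contra hcon
    push Not at hcon
    exact hJ0 (by ext i j; exact hcon i j)
  set μ : F := (J a b)⁻¹ with hμ
  have hμ0 : μ ≠ 0 := inv_ne_zero hab
  have hlij : ∀ i j, τ (J i j) = l * J i j := by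
    intro i j
    have := congrFun (congrFun hl i) j
    simpa using this
  have hl0 : l ≠ 0 := by
    rintro rfl
    have := hlij a b
    rw [zero_mul] at this
    exact hab ((map_eq_zero τ).1 this)
  have hJ1 : ∀ i j, μ * J i j ∈ F₁ := by
    intro i j
    apply hτ
    rw [map_mul, hμ, map_inv₀, hlij a b, hlij i j]
    field_simp
  set ν : F := μ ^ q / μ with hν
  have hνmem : ν ∈ F₁ := by
    have h1 : (J b a) ^ q = J a b := by
      have := congrFun (congrFun hJh a) b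
      simpa using this
    have : ν = (μ * J b a) ^ q := by
      rw [mul_pow, h1, hν, hμ]; field_simp
    rw [this]; exact pow_mem (hJ1 b a) q
  have hνν : ν * ν ^ q = 1 := by
    have hμq : μ ^ q ≠ 0 := pow_ne_zero _ hμ0
    rw [hν, div_pow, pow_q_pow_q hF]; field_simp
  have hgen : ∀ y : F, (y + y ^ q * ν) ^ q * ν = y + y ^ q * ν := by
    intro y
    rw [add_pow_q hF, mul_pow, pow_q_pow_q hF]
    linear_combination y * hνν
  obtain ⟨κ, hκ1, hκ0, hκ⟩ : ∃ κ ∈ F₁, κ ≠ 0 ∧ κ ^ q * ν = κ := by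
    by_cases hν1 : 1 + ν = 0
    · obtain ⟨y, hy, hyq⟩ := exists_not_fixed hF F₁ r hr hc
      refine ⟨y + y ^ q * ν, add_mem hy (mul_mem (pow_mem hy q) hνmem), ?_, hgen y⟩
      intro h0
      apply hyq
      linear_combination (y ^ q) * hν1 - h0
    · refine ⟨1 + 1 ^ q * ν, add_mem (one_mem _) (mul_mem (pow_mem (one_mem _) q) hνmem), ?_, hgen 1⟩
      rwa [one_pow, one_mul]
  have hcq : (κ * μ) ^ q = κ * μ := by
    rw [mul_pow]
    have : μ ^ q = ν * μ := by rw [hν]; field_simp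
    rw [this, ← mul_assoc, hκ]
  obtain ⟨lam, hlam⟩ := norm_surjective hF (κ * μ) hcq
  refine ⟨lam, ?_, ?_⟩
  · rintro rfl
    rw [zero_pow (by omega)] at hlam
    exact (mul_ne_zero hκ0 hμ0) hlam.symm
  · intro i j
    rw [hlam, mul_assoc]
    exact mul_mem hκ1 (hJ1 i j)

end Cfsg.Agent.Lib.Helper5.AschU
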