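import Mathlib
import Cfsg.Agent.Lib.Helper5.AschU.A1a
import Cfsg.Agent.Lib.Helper5.AschU.A1b
import Cfsg.Agent.Lib.Helper9.AschU.Base
import Cfsg.Agent.Lib.Helper45.SubfieldQ

set_option autoImplicit false

/-! # Unitary Aschbacher, block A: A1 (realisable over a proper subfield) -/

namespace Cfsg.Agent.Lib.Helper5.AschU

open Cfsg Cfsg.Geo Matrix Cfsg.Agent.Lib.Helper13 Cfsg.Agent.Lib.Helper13.Asch
  Cfsg.Agent.Lib.Helper5.SUAsch Cfsg.Agent.Lib.Helper9.AschU Cfsg.Agent.Lib.Helper55.Asch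
open scoped Kronecker MatrixGroups

variable {F : Type*} [Field F] [Fintype F] {n q : ℕ}

omit [Fintype F] in
theorem map_id' (X : Matrix (Fin n) (Fin n) F) : X.map (RingHom.id F) = X := by
  ext i j; rfl

omit [Fintype F] in
theorem isUnit_det_GL (x : GL (Fin n) F) : IsUnit (x : Matrix (Fin n) (Fin n) F).det :=
  (Matrix.isUnit_iff_isUnit_det _).1 x.isUnit

omit [Fintype F] in
theorem commutant_matrixSet {N : Subgroup (GL (Fin n) F)} (henv : env N = ⊤) :
    ∀ M : Matrix (Fin n) (Fin n) F, (∀ X ∈ matrixSet N, M * X = X * M) →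
      ∃ c : F, M = c • (1 : Matrix (Fin n) (Fin n) F) := by
  intro M hM
  exact Cfsg.Agent.Lib.Helper96.Asch.scalar_of_commute henv M (fun x hx => hM _ ⟨x, hx, rfl⟩)

/-- symmetric or alternating -/
theorem hsym_of (hF : Fintype.card F = q ^ 2) (hn : 2 ≤ n) {N : Subgroup (GL (Fin n) F)}
    (henv : env N = ⊤) (B : Matrix (Fin n) (Fin n) F) (hBdet : IsUnit B.det)
    (hBN : ∀ x ∈ N, ∃ c : F, (x : Matrix (Fin n) (Fin n) F)ᵀ * B * (x : Matrix (Fin n) (Fin n) F)
      = c • B) : (Bᵀ = B ∧ Odd q) ∨ (Bᵀ = -B ∧ ∀ i, B i i = 0) := by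
  have hB0 : B ≠ 0 := by
    rintro h0
    rw [h0] at hBdet
    have : Nonempty (Fin n) := ⟨⟨0, by omega⟩⟩
    simp at hBdet
  obtain ⟨ε, hε⟩ : ∃ ε : F, Bᵀ = ε • B := by
    apply uniq_mult (matrixSet N) (commutant_matrixSet henv) (RingHom.id F) (fun a => rfl) B Bᵀ hBdet
    · rintro _ ⟨x, -, rfl⟩; exact isUnit_det_GL x
    · rintro _ ⟨x, hx, rfl⟩
      obtain ⟨c, hc⟩ := hBN x hx
      refine ⟨c, by rw [map_id']; exact hc, ?_⟩
      rw [map_id']
      have := congrArg Matrix.transpose hc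
      rw [Matrix.transpose_mul, Matrix.transpose_mul, Matrix.transpose_transpose, ← mul_assoc,
        Matrix.transpose_smul] at this
      exact this
  have hε2 : ε * ε = 1 := by
    have h1 : B = (ε * ε) • B := by
      conv_lhs => rw [← Matrix.transpose_transpose B, hε, Matrix.transpose_smul, hε, smul_smul]
    obtain ⟨i, j, hij⟩ : ∃ i j, B i j ≠ 0 := by
      by_contra hcon
      push Not at hcon
      exact hB0 (by ext i j; exact hcon i j)
    have h2 := congrFun (congrFun h1 i) j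
    rw [Matrix.smul_apply, smul_eq_mul] at h2
    have h3 : (ε * ε - 1) * B i j = 0 := by linear_combination -h2
    rcases mul_eq_zero.1 h3 with h4 | h4
    · linear_combination h4
    · exact absurd h4 hij
  have hε1 : ε = 1 ∨ ε = -1 := by
    have : (ε - 1) * (ε + 1) = 0 := by linear_combination hε2
    rcases mul_eq_zero.1 this with h | h
    · left; linear_combination h
    · right; linear_combination h
  rcases Nat.even_or_odd q with hq | hq
  · -- characteristic two
    have h2 : (2 : F) = 0 := by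
      obtain ⟨p, k, hp, hchar, hqk⟩ := exists_char_pow hF
      have hp2 : p = 2 := by
        have h2q : 2 ∣ p ^ k := hqk ▸ hq.two_dvd
        exact ((Nat.prime_dvd_prime_iff_eq Nat.prime_two hp).1
          (Nat.Prime.dvd_of_dvd_pow Nat.prime_two h2q)).symm
      subst hp2
      exact_mod_cast CharP.cast_eq_zero F 2
    have hchar : CharP F 2 := CharTwo.of_one_ne_zero_of_two_eq_zero one_ne_zero h2
    have hneg : (-1 : F) = 1 := by linear_combination -h2
    have hs : Bᵀ = B := by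
      rcases hε1 with h | h
      · rw [hε, h, one_smul]
      · rw [hε, h, hneg, one_smul]
    right
    refine ⟨?_, zero_diag_of_char_two hn henv B hs hBN⟩
    rw [hs]
    ext i j
    rw [Matrix.neg_apply]
    linear_combination (B i j) * h2
  · rcases hε1 with h | h
    · left; exact ⟨by rw [hε, h, one_smul], hq⟩
    · right
      have hs : Bᵀ = -B := by rw [hε, h, neg_smul, one_smul]
      refine ⟨hs, fun i => ?_⟩
      have h1 := congrFun (congrFun hs i) i
      rw [Matrix.transpose_apply, Matrix.neg_apply] at h1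
      have h2 : (2 : F) ≠ 0 := by
        intro h2
        have hchar : CharP F 2 := CharTwo.of_one_ne_zero_of_two_eq_zero one_ne_zero h2
        have h3 : 2 ∣ Fintype.card F := by
          obtain ⟨k, -, hk⟩ := FiniteField.card F 2
          rw [hk]
          exact dvd_pow_self 2 k.ne_zero
        rw [hF] at h3
        have := Nat.Prime.dvd_of_dvd_pow Nat.prime_two h3
        exact (Nat.not_even_iff_odd.2 hq) (even_iff_two_dvd.2 this)
      have h3 : 2 * B i i = 0 := by linear_combination h1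
      exact (mul_eq_zero.1 h3).resolve_left h2

theorem sim_transpose_mul (hF : Fintype.card F = q ^ 2) (x : Matrix (Fin n) (Fin n) F) (c : F)
    (h : ∀ u v, hermForm n F q (x *ᵥ u) (x *ᵥ v) = c * hermForm n F q u v) :
    xᵀ * x.map (frobQ hF) = c • 1 := by
  have h1 : ∀ u v, gform (frobQ hF) (xᵀ * 1 * x.map (frobQ hF)) u v =
      gform (frobQ hF) (c • 1) u v := by
    intro u v
    rw [← gform_mulVec, gform_smul, ← hermForm_eq_gform, ← hermForm_eq_gform]
    exact h u v
  have h2 := gform_ext (frobQ hF) h1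
  rwa [mul_one] at h2

/-- the multiplier is unique -/
theorem mult_unique (hn : 2 ≤ n) {c c' : F} {B : Matrix (Fin n) (Fin n) F} (hB : IsUnit B.det)
    (h : c • B = c' • B) : c = c' := by
  have hB0 : B ≠ 0 := by
    rintro h0
    rw [h0] at hB
    have : Nonempty (Fin n) := ⟨⟨0, by omega⟩⟩
    simp at hB
  obtain ⟨i, j, hij⟩ : ∃ i j, B i j ≠ 0 := by
    by_contra hcon
    push Not at hcon
    exact hB0 (by ext i j; exact hcon i j)
  have h2 := congrFun (congrFun h i) j
  rw [Matrix.smul_apply, Matrix.smul_apply, smul_eq_mul, smul_eq_mul] at h2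
  exact mul_right_cancel₀ hij h2

/-- index two -/
theorem a1_index_two (hF : Fintype.card F = q ^ 2) (hn : 2 ≤ n)
    {H N : Subgroup (GL (Fin n) F)} (hA3 : A3Hyp n q H) (hH : H ≤ GU n F q) (hN : Nrm H N)
    (henv : env N = ⊤) (B₀ : GL (Fin n) F)
    (hB₀ : ∀ s ∈ N, ∀ i j, (((B₀ * s * B₀⁻¹ : GL (Fin n) F) : Matrix (Fin n) (Fin n) F) i j) ^ q =
      ((B₀ * s * B₀⁻¹ : GL (Fin n) F) : Matrix (Fin n) (Fin n) F) i j)
    (hsim : ∀ x ∈ N, ∃ c : F, ∀ u v, hermForm n F q ((x : Matrix (Fin n) (Fin n) F) *ᵥ u)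
      ((x : Matrix (Fin n) (Fin n) F) *ᵥ v) = c * hermForm n F q u v) : UCls n q H := by
  set σ := frobQ hF with hσ
  set b : Matrix (Fin n) (Fin n) F := (B₀ : Matrix (Fin n) (Fin n) F) with hb
  set p : Matrix (Fin n) (Fin n) F := ((B₀⁻¹ : GL (Fin n) F) : Matrix (Fin n) (Fin n) F) with hp
  have hbp : b * p = 1 := by rw [hb, hp, ← Units.val_mul, mul_inv_cancel, Units.val_one]
  have hpb : p * b = 1 := by rw [hb, hp, ← Units.val_mul, inv_mul_cancel, Units.val_one]
  set Bm : Matrix (Fin n) (Fin n) F := p.map σ * b with hBm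
  have hone : (1 : Matrix (Fin n) (Fin n) F).map σ = 1 := by
    ext i j
    by_cases hij : i = j
    · subst hij; simp
    · simp [hij]
  have hBB : Bm.map σ * Bm = (1 : F) • 1 := by
    rw [hBm, Matrix.map_mul, hσ, map_map_frobQ hF, ← hσ, one_smul]
    calc p * b.map σ * (p.map σ * b) = p * (b.map σ * p.map σ) * b := by simp only [mul_assoc]
      _ = 1 := by rw [← Matrix.map_mul, hbp, hone, mul_one, hpb]
  have hBdet : IsUnit Bm.det := by
    rw [one_smul] at hBB
    exact Matrix.isUnit_det_of_left_inverse hBB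
  have h1 : ∀ x ∈ N, (x : Matrix (Fin n) (Fin n) F).map σ * Bm = Bm * (x : Matrix (Fin n) (Fin n) F) := by
    intro x hx
    set X : Matrix (Fin n) (Fin n) F := (x : Matrix (Fin n) (Fin n) F) with hX
    have hx0 : (b * X * p).map σ = b * X * p := by
      ext i j
      have := hB₀ x hx i j
      rw [Units.val_mul, Units.val_mul] at this
      exact this
    have e1 : X * p = p * (b * X * p) := by
      rw [← mul_assoc, ← mul_assoc, hpb, one_mul]
    calc X.map σ * Bm = (X * p).map σ * b := by rw [hBm, ← mul_assoc, Matrix.map_mul]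
      _ = p.map σ * (b * X * p) * b := by rw [e1, Matrix.map_mul, hx0]
      _ = p.map σ * b * X * (p * b) := by simp only [mul_assoc]
      _ = Bm * X := by rw [hpb, mul_one]
  have h3 : ∀ x ∈ N, ∀ c : F, (∀ u v, hermForm n F q ((x : Matrix (Fin n) (Fin n) F) *ᵥ u)
      ((x : Matrix (Fin n) (Fin n) F) *ᵥ v) = c * hermForm n F q u v) →
      (x : Matrix (Fin n) (Fin n) F)ᵀ * Bm * (x : Matrix (Fin n) (Fin n) F) = c • Bm := by
    intro x hx c hc
    rw [mul_assoc, ← h1 x hx, ← mul_assoc, sim_transpose_mul hF _ c hc, Matrix.smul_mul, one_mul]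
  have hBN : ∀ x ∈ N, ∃ c : F, (x : Matrix (Fin n) (Fin n) F)ᵀ * Bm *
      (x : Matrix (Fin n) (Fin n) F) = c • Bm := by
    intro x hx
    obtain ⟨c, hc⟩ := hsim x hx
    exact ⟨c, h3 x hx c hc⟩
  have hsym := hsym_of hF hn henv Bm hBdet hBN
  refine hA3 Bm hBdet hsym 1 hBB ?_
  intro h hh
  apply uniq_mult (matrixSet N) (commutant_matrixSet henv) (RingHom.id F) (fun a => rfl) Bm _ hBdet
  · rintro _ ⟨x, -, rfl⟩; exact isUnit_det_GL x
  · rintro _ ⟨x, hx, rfl⟩
    obtain ⟨c, hc⟩ := hsim x hx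
    refine ⟨c, by rw [map_id']; exact h3 x hx c hc, ?_⟩
    rw [map_id']
    -- y = h x h⁻¹
    have hy : h * x * h⁻¹ ∈ N := hN h hh x hx
    have hyc : ∀ u v, hermForm n F q (((h * x * h⁻¹ : GL (Fin n) F) : Matrix (Fin n) (Fin n) F) *ᵥ u)
        (((h * x * h⁻¹ : GL (Fin n) F) : Matrix (Fin n) (Fin n) F) *ᵥ v) =
        c * hermForm n F q u v := by
      intro u v
      have hh1 : ∀ u v, hermForm n F q ((h : Matrix (Fin n) (Fin n) F) *ᵥ u)
          ((h : Matrix (Fin n) (Fin n) F) *ᵥ v) = hermForm n F q u v := hH hh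
      have hh2 : ∀ u v, hermForm n F q (((h⁻¹ : GL (Fin n) F) : Matrix (Fin n) (Fin n) F) *ᵥ u)
          (((h⁻¹ : GL (Fin n) F) : Matrix (Fin n) (Fin n) F) *ᵥ v) = hermForm n F q u v :=
        (GU n F q).inv_mem (hH hh)
      rw [Units.val_mul, Units.val_mul, ← Matrix.mulVec_mulVec, ← Matrix.mulVec_mulVec,
        ← Matrix.mulVec_mulVec, ← Matrix.mulVec_mulVec]
      rw [hh1 _ _, hc, hh2 _ _]
    have e := h3 _ hy c hyc
    have e2 : ((h * x * h⁻¹ : GL (Fin n) F) : Matrix (Fin n) (Fin n) F) *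
        (h : Matrix (Fin n) (Fin n) F) = (h : Matrix (Fin n) (Fin n) F) *
        (x : Matrix (Fin n) (Fin n) F) := by
      rw [← Units.val_mul, ← Units.val_mul]; congr 1; group
    calc (x : Matrix (Fin n) (Fin n) F)ᵀ * ((h : Matrix (Fin n) (Fin n) F)ᵀ * Bm *
          (h : Matrix (Fin n) (Fin n) F)) * (x : Matrix (Fin n) (Fin n) F)
        = ((h : Matrix (Fin n) (Fin n) F) * (x : Matrix (Fin n) (Fin n) F))ᵀ * Bm *
          ((h : Matrix (Fin n) (Fin n) F) * (x : Matrix (Fin n) (Fin n) F)) := by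
          rw [Matrix.transpose_mul]; simp only [mul_assoc]
      _ = (h : Matrix (Fin n) (Fin n) F)ᵀ *
          (((h * x * h⁻¹ : GL (Fin n) F) : Matrix (Fin n) (Fin n) F)ᵀ * Bm *
          ((h * x * h⁻¹ : GL (Fin n) F) : Matrix (Fin n) (Fin n) F)) *
          (h : Matrix (Fin n) (Fin n) F) := by
          rw [← e2, Matrix.transpose_mul]; simp only [mul_assoc]
      _ = _ := by rw [e, Matrix.mul_smul, Matrix.smul_mul]


theorem gform_mem (σ : F →+* F) (F₁ : Subfield F) (hσ : ∀ x ∈ F₁, σ x ∈ F₁)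
    (G : Matrix (Fin n) (Fin n) F) (hG : ∀ i j, G i j ∈ F₁) (u v : Fin n → F)
    (hu : ∀ i, u i ∈ F₁) (hv : ∀ i, v i ∈ F₁) : gform σ G u v ∈ F₁ := by
  simp only [gform, dotProduct, Matrix.mulVec]
  exact sum_mem fun i _ => mul_mem (hu i) (sum_mem fun j _ => mul_mem (hG i j) (hσ _ (hv j)))

/-- odd index -/
theorem a1_odd (hF : Fintype.card F = q ^ 2) (hn : 2 ≤ n)
    {H N : Subgroup (GL (Fin n) F)} (hN : Nrm H N)
    (henv : env N = ⊤) (F₀ F₁ : Subfield F) (r : ℕ) (hrp : r.Prime) (hr : Odd r)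
    (hc : Fintype.card F = Nat.card F₁ ^ r) (τ : F →+* F) (hτ0 : ∀ x ∈ F₀, τ x = x)
    (hτ : ∀ x, τ x = x → x ∈ F₁) (B₀ : GL (Fin n) F)
    (hB₀ : ∀ s ∈ N, ∀ i j, ((B₀ * s * B₀⁻¹ : GL (Fin n) F) : Matrix (Fin n) (Fin n) F) i j ∈ F₀)
    (hsim : ∀ x ∈ N, ∃ c ∈ F₀, ∀ u v, hermForm n F q ((x : Matrix (Fin n) (Fin n) F) *ᵥ u)
      ((x : Matrix (Fin n) (Fin n) F) *ᵥ v) = c * hermForm n F q u v) : UCls n q H := by
  set σ := frobQ hF with hσ
  set b : Matrix (Fin n) (Fin n) F := (B₀ : Matrix (Fin n) (Fin n) F) with hb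
  set p : Matrix (Fin n) (Fin n) F := ((B₀⁻¹ : GL (Fin n) F) : Matrix (Fin n) (Fin n) F) with hp
  have hbp : b * p = 1 := by rw [hb, hp, ← Units.val_mul, mul_inv_cancel, Units.val_one]
  have hpb : p * b = 1 := by rw [hb, hp, ← Units.val_mul, inv_mul_cancel, Units.val_one]
  have hone : (1 : Matrix (Fin n) (Fin n) F).map σ = 1 := by
    ext i j
    by_cases hij : i = j
    · subst hij; simp
    · simp [hij]
  set J : Matrix (Fin n) (Fin n) F := pᵀ * p.map σ with hJ
  have hpdet : IsUnit p.det := isUnit_det_GL _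
  have hpσdet : IsUnit (p.map σ).det := by
    apply Matrix.isUnit_det_of_left_inverse (B := b.map σ)
    rw [← Matrix.map_mul, hbp, hone]
  have hJdet : IsUnit J.det := by
    rw [hJ, Matrix.det_mul, Matrix.det_transpose]; exact hpdet.mul hpσdet
  have hJ0 : J ≠ 0 := by
    rintro h0
    rw [h0] at hJdet
    have : Nonempty (Fin n) := ⟨⟨0, by omega⟩⟩
    simp at hJdet
  have hJh : (J.map σ)ᵀ = J := by
    rw [hJ, Matrix.map_mul, hσ, map_map_frobQ hF, Matrix.transpose_mul, ← Matrix.transpose_map,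
      Matrix.transpose_transpose]
  -- the conjugated set
  set 𝒳 : Set (Matrix (Fin n) (Fin n) F) :=
    {X | ∃ x ∈ N, X = b * (x : Matrix (Fin n) (Fin n) F) * p} with h𝒳
  have hcs : ∀ M : Matrix (Fin n) (Fin n) F, (∀ X ∈ 𝒳, M * X = X * M) →
      ∃ c : F, M = c • (1 : Matrix (Fin n) (Fin n) F) := by
    intro M hM
    obtain ⟨c, hc⟩ := commutant_matrixSet henv (p * M * b) (by
      rintro _ ⟨x, hx, rfl⟩
      have h1 := hM _ ⟨x, hx, rfl⟩
      calc p * M * b * (x : Matrix (Fin n) (Fin n) F)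
          = p * (M * (b * (x : Matrix (Fin n) (Fin n) F) * p)) * b := by
            simp only [mul_assoc]; rw [hpb, mul_one]
        _ = p * (b * (x : Matrix (Fin n) (Fin n) F) * p * M) * b := by rw [h1]
        _ = (p * b) * (x : Matrix (Fin n) (Fin n) F) * (p * M * b) := by simp only [mul_assoc]
        _ = _ := by rw [hpb, one_mul])
    refine ⟨c, ?_⟩
    calc M = (b * p) * M * (b * p) := by rw [hbp, one_mul, mul_one]
      _ = b * (p * M * b) * p := by simp only [mul_assoc]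
      _ = _ := by rw [hc, Matrix.mul_smul, mul_one, Matrix.smul_mul, hbp]
  have hval : ∀ x : GL (Fin n) F, ((B₀ * x * B₀⁻¹ : GL (Fin n) F) : Matrix (Fin n) (Fin n) F) =
      b * (x : Matrix (Fin n) (Fin n) F) * p := by
    intro x; rw [Units.val_mul, Units.val_mul]
  obtain ⟨l, hl⟩ : ∃ l : F, J.map τ = l • J := by
    apply uniq_mult 𝒳 hcs σ (fun a => by rw [hσ, frobQ_apply, frobQ_apply, pow_q_pow_q hF]) J _ hJdet
    · rintro _ ⟨x, -, rfl⟩
      rw [← hval]; exact isUnit_det_GL _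
    · rintro _ ⟨x, hx, rfl⟩
      obtain ⟨c, hc0, hc⟩ := hsim x hx
      set X : Matrix (Fin n) (Fin n) F := (x : Matrix (Fin n) (Fin n) F) with hX
      have e1 : (b * X * p)ᵀ * J * (b * X * p).map σ = c • J := by
        have e2 := sim_transpose_mul hF X c hc
        calc (b * X * p)ᵀ * J * (b * X * p).map σ
            = pᵀ * Xᵀ * (p * b)ᵀ * (p * b).map σ * X.map σ * p.map σ := by
              rw [hJ]
              simp only [Matrix.transpose_mul, Matrix.map_mul, mul_assoc]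
          _ = pᵀ * (Xᵀ * X.map σ) * p.map σ := by
              rw [hpb, hone, Matrix.transpose_one, mul_one, mul_one]; simp only [mul_assoc]
          _ = _ := by rw [e2, Matrix.mul_smul, mul_one, Matrix.smul_mul]
      refine ⟨c, e1, ?_⟩
      have hXτ : (b * X * p).map τ = b * X * p := by
        ext i j
        rw [Matrix.map_apply]
        apply hτ0
        rw [← hval]; exact hB₀ x hx i j
      have hXστ : ((b * X * p).map σ).map τ = (b * X * p).map σ := by
        ext i j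
        rw [Matrix.map_apply]
        apply hτ0
        rw [Matrix.map_apply, hσ, frobQ_apply, ← hval]
        exact pow_mem (hB₀ x hx i j) q
      have e3 : ((b * X * p)ᵀ * J * (b * X * p).map σ).map τ = (c • J).map τ := by rw [e1]
      rw [Matrix.map_mul, Matrix.map_mul, hXστ, Matrix.transpose_map, hXτ] at e3
      rw [e3]
      ext i j
      simp [hτ0 c hc0]
  obtain ⟨lam, hlam0, hlam⟩ := exists_norm_scalar hF F₁ r hr hc τ hτ J hJ0 hJh l hl
  let sc : GL (Fin n) F :=
    Units.map (Matrix.scalar (Fin n) : F →+* Matrix (Fin n) (Fin n) F).toMonoidHom (Units.mk0 lam hlam0)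
  have hsc : (sc : Matrix (Fin n) (Fin n) F) = Matrix.scalar (Fin n) lam := rfl
  have hcomm : ∀ g : GL (Fin n) F, sc * g = g * sc := by
    intro g
    apply Units.ext
    rw [Units.val_mul, Units.val_mul, hsc]
    exact (Matrix.scalar_commute lam (fun r' => mul_comm _ _) _).eq
  set P : GL (Fin n) F := B₀⁻¹ * sc with hP
  have hPval : (P : Matrix (Fin n) (Fin n) F) = lam • p := by
    rw [hP, Units.val_mul, hsc, ← hp]
    ext i j
    simp [mul_comm]
  have hle : H ≤ subfieldSubgroup F₁ P := by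
    have := subfield_core H N hN henv F₁ τ hτ P⁻¹ (by
      intro s hs
      have e : P⁻¹ * s * P⁻¹⁻¹ = B₀ * s * B₀⁻¹ := by
        rw [hP, inv_inv, _root_.mul_inv_rev, inv_inv]
        calc sc⁻¹ * B₀ * s * (B₀⁻¹ * sc) = sc⁻¹ * ((B₀ * s * B₀⁻¹) * sc) := by group
          _ = sc⁻¹ * (sc * (B₀ * s * B₀⁻¹)) := by rw [hcomm]
          _ = _ := by group
      rw [e]
      ext i j
      rw [RingHom.mapMatrix_apply, Matrix.map_apply]
      exact hτ0 _ (hB₀ s hs i j))
    rwa [inv_inv] at this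
  right; right; right; right; left
  refine ⟨F₁, r, P, hrp, hr, hc, ?_, hle⟩
  intro u v hu hv
  rw [one_mul, hermForm_eq_gform hF, gform_mulVec]
  apply gform_mem _ F₁ (fun x hx => by rw [frobQ_apply]; exact pow_mem hx q) _ _ u v hu hv
  intro i j
  have : (P : Matrix (Fin n) (Fin n) F)ᵀ * 1 * (P : Matrix (Fin n) (Fin n) F).map (frobQ hF) =
      (lam ^ (q + 1)) • J := by
    rw [hPval, mul_one, hJ]
    have : (lam • p).map (frobQ hF) = lam ^ q • p.map σ := by
      ext i j; simp [hσ, mul_pow]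
    rw [this, Matrix.transpose_smul, Matrix.smul_mul, Matrix.mul_smul, smul_smul, pow_succ, mul_comm]
  rw [this, Matrix.smul_apply, smul_eq_mul]
  exact hlam i j

/-- A1, with A3 as a hypothesis -/
theorem ucls_of_realisable_aux (hF : Fintype.card F = q ^ 2) (hn : 2 ≤ n)
    {H N : Subgroup (GL (Fin n) F)} (hA3 : A3Hyp n q H) (hH : H ≤ GU n F q) (hN : Nrm H N)
    (henv : env N = ⊤) (F₀ : Subfield F) (hF₀ : F₀ ≠ ⊤) (hr : RealisableOver F₀ (matrixSet N))
    (hsim : ∀ x ∈ N, ∃ c ∈ F₀, ∀ u v, hermForm n F q ((x : Matrix (Fin n) (Fin n) F) *ᵥ u)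
      ((x : Matrix (Fin n) (Fin n) F) *ᵥ v) = c * hermForm n F q u v) : UCls n q H := by
  obtain ⟨B₀, hB₀'⟩ := hr
  have hB₀ : ∀ s ∈ N, ∀ i j,
      ((B₀ * s * B₀⁻¹ : GL (Fin n) F) : Matrix (Fin n) (Fin n) F) i j ∈ F₀ := by
    intro s hs i j
    rw [Units.val_mul, Units.val_mul]
    exact hB₀' _ ⟨s, hs, rfl⟩ i j
  obtain ⟨F₁, r, τ, hrp, hc, hτ0, hτ⟩ := Cfsg.Agent.Lib.Helper35.Asch.exists_sigma F₀ hF₀
  rcases hrp.eq_two_or_odd' with h2 | hodd
  · subst h2
    have hq : Nat.card F₁ = q := by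
      rw [hF] at hc
      exact (Nat.pow_left_injective (n := 2) (by norm_num) hc).symm
    apply a1_index_two hF hn hA3 hH hN henv B₀ _ (fun x hx => by
      obtain ⟨c, -, hc⟩ := hsim x hx; exact ⟨c, hc⟩)
    intro s hs i j
    have h1 : ((B₀ * s * B₀⁻¹ : GL (Fin n) F) : Matrix (Fin n) (Fin n) F) i j ∈ F₁ :=
      hτ _ (hτ0 _ (hB₀ s hs i j))
    classical
    have h2 := FiniteField.pow_card (⟨_, h1⟩ : F₁)
    rw [← Nat.card_eq_fintype_card, hq] at h2
    exact congrArg Subtype.val h2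
  · exact a1_odd hF hn hN henv F₀ F₁ r hrp hodd hc τ hτ0 hτ B₀ hB₀ hsim

end Cfsg.Agent.Lib.Helper5.AschU
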