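import Mathlib
import Cfsg.Agent.Lib.Helper5.AschU.A1
import Cfsg.Agent.Lib.Helper62.AschU.A3

set_option autoImplicit false

/-! # Unitary Aschbacher, block A: A1 and A2, final statements -/

namespace Cfsg.Agent.Lib.Helper5.AschU

open Cfsg Cfsg.Geo Matrix Cfsg.Agent.Lib.Helper13 Cfsg.Agent.Lib.Helper13.Asch
  Cfsg.Agent.Lib.Helper5.SUAsch Cfsg.Agent.Lib.Helper9.AschU Cfsg.Agent.Lib.Helper55.Asch
open scoped Kronecker MatrixGroups

variable {F : Type*} [Field F] [Fintype F] {n q : ℕ}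

theorem a3Hyp (hF : Fintype.card F = q ^ 2) (hn : 2 ≤ n) {H : Subgroup (GL (Fin n) F)}
    (hH : H ≤ GU n F q) : A3Hyp n q H :=
  fun B hB hsym a hBB hsim => Cfsg.Agent.Lib.Helper62.AschU.ucls_of_gram hF hn hH B hB hsym a hBB hsim

/-- A2 -/
theorem ucls_of_fixes_bilin (hF : Fintype.card F = q ^ 2) (hn : 2 ≤ n)
    {H N : Subgroup (GL (Fin n) F)} (hH : H ≤ GU n F q) (hNU : N ≤ GU n F q) (hN : Nrm H N)
    (henv : env N = ⊤) (b : (Fin n → F) → (Fin n → F) → F) (hb : IsBilinearForm b)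
    (hnd : IsNondegenerateForm b) (hfix : FixesForm (matrixSet N) b) : UCls n q H :=
  ucls_of_fixes_bilin_aux hF hn (a3Hyp hF hn hH) hNU hN henv b hb hnd hfix

/-- A1 -/
theorem ucls_of_realisable (hF : Fintype.card F = q ^ 2) (hn : 2 ≤ n)
    {H N : Subgroup (GL (Fin n) F)} (hH : H ≤ GU n F q) (hN : Nrm H N) (henv : env N = ⊤)
    (F₀ : Subfield F) (hF₀ : F₀ ≠ ⊤) (hr : RealisableOver F₀ (matrixSet N))
    (hsim : ∀ x ∈ N, ∃ c ∈ F₀, ∀ u v, hermForm n F q ((x : Matrix (Fin n) (Fin n) F) *ᵥ u)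
      ((x : Matrix (Fin n) (Fin n) F) *ᵥ v) = c * hermForm n F q u v) : UCls n q H :=
  ucls_of_realisable_aux hF hn (a3Hyp hF hn hH) hH hN henv F₀ hF₀ hr hsim

end Cfsg.Agent.Lib.Helper5.AschU
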