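import Cfsg.Agent.Lib.Helper5.AschU.MainRaw
import Cfsg.Agent.Lib.Helper5.SURows.REF

set_option autoImplicit false

/-! # Unitary Aschbacher theorem in dimensions that are not powers of three; the refined list -/

namespace Cfsg.Agent.Lib.Helper5.AschU

open Cfsg Cfsg.Geo Matrix Cfsg.Agent.Lib.Helper5.SUAsch Cfsg.Agent.Lib.Helper9.AschU
open scoped Kronecker MatrixGroups

variable {F : Type*} [Field F] [Fintype F] {n q : ℕ}

theorem main_of_ne (hF : Fintype.card F = q ^ 2) (hn : 2 ≤ n) (h3 : ∀ t, 2 ≤ t → n ≠ 3 ^ t)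
    (H : Subgroup (GL (Fin n) F)) (hH : H ≤ GU n F q) :
    UCls n q H ∨ InUnitaryResidualClass H := by
  rcases main_raw hF hn H hH with (h | h) | h
  · exact Or.inl h
  · exfalso
    obtain ⟨-, t, e, -, ht, -⟩ := h
    apply h3 t ht
    have := Fintype.card_congr e
    simpa using this
  · exact Or.inr h

theorem ne_three_pow {n : ℕ} (h9 : n ≠ 9) (h27 : n < 27) : ∀ t, 2 ≤ t → n ≠ 3 ^ t := by
  intro t ht h
  rcases Nat.lt_or_ge t 3 with h1 | h1
  · obtain rfl : t = 2 := by omega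
    exact h9 (by rw [h]; norm_num)
  · have : 3 ^ 3 ≤ 3 ^ t := Nat.pow_le_pow_right (by norm_num) h1
    omega

/-- the refined list for maximal subgroups of `SU_n(q)`, `4 ≤ n < 27`, `n ≠ 9` -/
theorem uref_of_maximal (hF : Fintype.card F = q ^ 2) (hn : 4 ≤ n) (h9 : n ≠ 9) (h27 : n < 27)
    (H : Subgroup (GL (Fin n) F)) (hH : IsMaximalIn (SUg n F q) H) : URef n q H :=
  Cfsg.Agent.Lib.Helper5.SURows.refined hF hn H hH
    (main_of_ne hF (by omega) (ne_three_pow h9 h27) H (hH.1.le.trans inf_le_left))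

end Cfsg.Agent.Lib.Helper5.AschU
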